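import Cfsg.Agent.H1.S7.D2
import Cfsg.Agent.H6.S5.D1

/-! Permutation groups containing a self-centralising semiregular subgroup with automizer of order eleven. -/

set_option autoImplicit false
set_option linter.unusedSectionVars false

namespace Cfsg.Agent.H6.S11

open Finset H4.CA Subgroup MulAction
open scoped Classical
open Cfsg.Agent.H6.S5 (sq_le)

universe u v

/-- the character theoretic input -/
def CA : Prop := ∀ (G : Type u) [Group G] [Fintype G] (T : Subgroup G), Loc T →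
  Nat.card (normalizer (T : Set G)) = Nat.card T * 11 → 2047 ≤ Nat.card T →
  (∀ K : Subgroup G, K.Normal → T ≤ K → K = ⊤) → ∀ (Ω : Type v) [Fintype Ω] [MulAction G Ω] [Nonempty Ω],
  (∀ x ∈ T, x ≠ 1 → ∀ ω : Ω, x • ω ≠ ω) → ∀ n : ℕ, n ≤ 11 → Fintype.card Ω = n * Nat.card T →
  Nat.card (MulAction.orbitRel.Quotient G (Ω × Ω)) = 2 ∨ ∃ g x : ℤ, 1 ≤ g ∧ g ≤ n ∧
    1 ≤ x ∧ x ≤ 3 ∧ x ≤ g ∧ ¬ (g = n ∧ x = 1) ∧ g * Nat.card T - x ∣ Nat.card G

variable {G : Type u} [Group G] [Fintype G] {T : Subgroup G}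

variable {Ω : Type v} [Fintype Ω] [MulAction G Ω] [Nonempty Ω] {n : ℕ}

theorem frob_case (h : Loc T) (hN : normalizer (T : Set G) ≤ T) (hT : T ≠ ⊤)
    (hf : ∀ x ∈ T, x ≠ 1 → ∀ ω : Ω, x • ω ≠ ω) (hD : Fintype.card Ω ≤ 11 * Nat.card T)
    (hx : ∀ g : G, g ≠ 1 → Nat.card (fixedBy Ω g) + 12 ≤ Nat.card T) : False := by
  obtain ⟨g, hg⟩ : ∃ g, g ∉ T := by
    by_contra! e; exact hT ((eq_top_iff' T).2 e)
  have a1 := sq_le h (fun e => hg (hN e)) le_top fun _ _ => trivial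
  have a2 := T.index_mul_card
  have t0 : 0 < Nat.card T := Nat.card_pos
  rw [card_top, ← a2] at a1
  replace a1 := Nat.le_of_mul_le_mul_right a1 t0
  let f : (G ⧸ T) × {a : T // a ≠ 1} → G := fun x => x.1.out * x.2 * x.1.out⁻¹
  have inj : Function.Injective f := fun x y e => by
    have e1 : x.1 = y.1 := by
      rw [← x.1.out_eq, ← y.1.out_eq]
      refine QuotientGroup.eq.2 (hN (h.mem_norm x.2.1.2 (fun e => x.2.2 (Subtype.ext e)) ?_))
      convert y.2.1.2 using 1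
      rw [← mul_right_inj y.1.out, ← mul_left_inj y.1.out⁻¹, ← show _ = _ * _ from e]; simp [f, mul_assoc]
    exact Prod.ext e1 (Subtype.ext (Subtype.ext (by simpa [f, e1] using e)))
  have c1 : (univ.image f).card = T.index * (Nat.card T - 1) := by
    rw [card_image_of_injective _ inj, card_univ, Fintype.card_prod, Fintype.card_subtype_compl,
      Fintype.card_subtype_eq, index, Nat.card_eq_fintype_card, Nat.card_eq_fintype_card]
  have b := sum_card_fixedBy_eq_card_orbits_mul_card_group G Ω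
  have b1 : ∑ g : G, Fintype.card (fixedBy Ω g) ≤ ∑ g : G, ((if g = 1 then 11 * Nat.card T else 0) +
      if g ∈ (univ.image f)ᶜ then Nat.card T - 12 else 0) := sum_le_sum fun g _ => by
    by_cases g1 : g = 1
    · rw [if_pos g1]; exact ((Fintype.card_subtype_le _).trans hD).trans (Nat.le_add_right _ _)
    split_ifs with e
    · have := hx g g1; rw [Nat.card_eq_fintype_card] at this; omega
    obtain ⟨x, -, rfl⟩ := mem_image.1 (not_not.1 (mt mem_compl.2 e))
    exact (Fintype.card_eq_zero_iff.2 ⟨fun ω => hf _ x.2.1.2 (fun e => x.2.2 (Subtype.ext e))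
      (x.1.out⁻¹ • ω.1) (by rw [eq_inv_smul_iff, smul_smul, smul_smul]; exact ω.2)⟩).le
  rw [b, sum_add_distrib, sum_ite_eq', if_pos (mem_univ _), sum_ite_mem, univ_inter, sum_const, card_compl,
    c1, ← Nat.card_eq_fintype_card (α := G), ← a2, smul_eq_mul, ← Nat.mul_sub,
    Nat.sub_sub_self (show 1 ≤ _ from t0), mul_one] at b1
  have b2 := (Nat.le_mul_of_pos_left _ (Fintype.card_pos_iff.2 ⟨Quotient.mk'' (Classical.arbitrary Ω)⟩)).trans b1
  have := hx g fun e => hg (e ▸ one_mem T)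
  obtain ⟨s, hs⟩ : ∃ s, Nat.card T = s + 12 := ⟨Nat.card T - 12, by omega⟩
  rw [hs, Nat.add_sub_cancel] at b2
  nlinarith

theorem charD (cA : CA.{u, v}) (h : Loc T) (hN : Nat.card (normalizer (T : Set G)) = Nat.card T * 11)
    (ht : 2047 ≤ Nat.card T) (hne : normalizer (T : Set G) ≠ ⊤)
    (hf : ∀ x ∈ T, x ≠ 1 → ∀ ω : Ω, x • ω ≠ ω) (hn : n ≤ 11) (hD : Fintype.card Ω = n * Nat.card T)
    (hx : ∀ g : G, g ≠ 1 → Nat.card (fixedBy Ω g) + 12 ≤ Nat.card T)
    (hd : ∀ g x : ℤ, 1 ≤ g → g ≤ n → 1 ≤ x → x ≤ 3 → x ≤ g → ¬ (g = n ∧ x = 1) →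
      ¬ g * Nat.card T - x ∣ Nat.card G) {a b a' b' : Ω} (h1 : a ≠ b) (h2 : a' ≠ b') :
    ∃ g : G, g • a = a' ∧ g • b = b' := by
  obtain ⟨L, ⟨l1, l2⟩, hL⟩ := exists_minimal_of_wellFoundedLT
    (fun L : Subgroup G => T ≤ L ∧ ¬ L ≤ normalizer (T : Set G)) ⟨⊤, le_top, fun e => hne (top_unique e)⟩
  have := Fintype.ofFinite L
  have c1 : Nat.card (T.subgroupOf L) = Nat.card T := Nat.card_congr (subgroupOfEquivOfLe l1).toEquiv
  have loc : Loc (T.subgroupOf L) := ⟨fun a ha b hb => Subtype.ext (h.comm _ ha _ hb),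
    fun a ha a1 g e => h.cent _ ha (fun e => a1 (Subtype.ext e)) _ (congrArg Subtype.val e)⟩
  have hf' : ∀ x ∈ T.subgroupOf L, x ≠ 1 → ∀ ω : Ω, x • ω ≠ ω := fun x hx e =>
    hf x hx fun f => e (Subtype.ext f)
  have c2 : Nat.card (normalizer (T.subgroupOf L : Set L)) = Nat.card T * 11 := by
    rw [← subgroupOf_normalizer_eq l1]
    have d1 := card_dvd_of_le (le_normalizer (H := T.subgroupOf L))
    rw [← subgroupOf_normalizer_eq l1, c1] at d1
    obtain ⟨j, hj⟩ := d1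
    have d2 := card_comap_dvd_of_injective (normalizer (T : Set G)) _ L.subtype_injective
    rw [hN, ← subgroupOf, hj] at d2
    rcases (Nat.dvd_prime Nat.prime_eleven).1 (Nat.dvd_of_mul_dvd_mul_left Nat.card_pos d2) with rfl | rfl
    · refine (frob_case loc (eq_of_le_of_card_ge le_normalizer ?_).ge (fun e => l2 fun x hx =>
        le_normalizer (e.ge (mem_top ⟨x, hx⟩))) hf' (by rw [c1, hD]; gcongr)
        fun g g1 => c1 ▸ hx g fun e => g1 (Subtype.ext e)).elim
      rw [← subgroupOf_normalizer_eq l1, hj, c1, mul_one]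
    · exact hj
  rcases cA L _ loc (c1 ▸ c2) (c1 ▸ ht) (fun K hK e => by
    have k1 : T ≤ K.map L.subtype := (map_subgroupOf_eq_of_le l1).ge.trans (map_mono e)
    by_contra ne
    have k2 : K.map L.subtype ≤ normalizer (T : Set G) := by
      by_contra k2
      exact ne (top_unique fun x _ => (mem_map_iff_mem L.subtype_injective).1
        (hL ⟨k1, k2⟩ (map_subtype_le K) x.2))
    refine l2 fun g hg => by_contra fun ng => ?_
    have := sq_le h ng le_normalizer fun a ha =>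
      k2 ⟨_, hK.conj_mem' ⟨a, l1 ha⟩ (e ha) ⟨g, hg⟩, rfl⟩
    nlinarith) Ω hf' n hn (c1 ▸ hD) with e | ⟨g, x, e1, e2, e3, e3', e3'', e4, e5⟩
  · obtain ⟨x, y, ne, xy⟩ := Nat.card_eq_two_iff.1 e
    have k : ∀ {a b c : Ω}, a ≠ b → (Quotient.mk'' (a, b) : orbitRel.Quotient L (Ω × Ω)) ≠
        Quotient.mk'' (c, c) := fun ab e => by
      obtain ⟨g, hg⟩ := Quotient.exact' e
      exact ab ((congrArg Prod.fst hg).symm.trans (congrArg Prod.snd hg))
    have k3 : (Quotient.mk'' (a', b') : orbitRel.Quotient L (Ω × Ω)) = Quotient.mk'' (a, b) := by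
      have m := fun z => xy.ge (Set.mem_univ z)
      have k1 := k (c := a) h1
      have k2 := k (c := a) h2
      rcases m (Quotient.mk'' (a, a)) with e1 | e1 <;> rcases m (Quotient.mk'' (a, b)) with e2 | e2 <;>
        rcases m (Quotient.mk'' (a', b')) with e3 | e3 <;>
        first | exact e3.trans e2.symm | exact (k1 (e2.trans e1.symm)).elim | exact (k2 (e3.trans e1.symm)).elim
    obtain ⟨g, hg⟩ := Quotient.exact' k3
    exact ⟨g, congrArg Prod.fst hg, congrArg Prod.snd hg⟩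
  · exact (hd g x e1 e2 e3 e3' e3'' e4 ((c1 ▸ e5 :).trans (by exact_mod_cast L.card_subgroup_dvd_card))).elim

theorem card_norm {ψ : G} (h1 : ψ ∈ normalizer (T : Set G)) (h2 : ψ ∉ T) (h3 : ψ ^ 11 ∈ T)
    (h4 : ∀ g ∈ normalizer (T : Set G), ∃ i : ℕ, (ψ ^ i)⁻¹ * g ∈ T) :
    Nat.card (normalizer (T : Set G)) = Nat.card T * 11 := by
  have := Fact.mk Nat.prime_eleven
  have o : orderOf ((⟨ψ, h1⟩ : normalizer (T : Set G)) : _ ⧸ T.subgroupOf (normalizer (T : Set G))) = 11 :=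
    orderOf_eq_prime ((QuotientGroup.eq_one_iff (_ ^ 11)).2 h3) (mt (QuotientGroup.eq_one_iff _).1 h2)
  rw [← (T.subgroupOf _).card_mul_index, Nat.card_congr (subgroupOfEquivOfLe le_normalizer).toEquiv, index,
    ← o, orderOf_eq_card_of_forall_mem_powers]
  rintro ⟨g⟩
  obtain ⟨i, hi⟩ := h4 g g.2
  exact ⟨i, QuotientGroup.eq.2 hi⟩

end Cfsg.Agent.H6.S11
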