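import Cfsg.Agent.H6.S11.D1
import Cfsg.Agent.H9.S11.Num
import Cfsg.Agent.H6.S5.D2

/-! The normaliser of a Singer cycle in `SL_11(q)`. -/

set_option autoImplicit false
set_option linter.unusedSimpArgs false
set_option linter.unusedSectionVars false

namespace Cfsg.Agent.H6.S11

open Module MulAction Finset Subgroup
open scoped LinearAlgebra.Projectivization
open Cfsg.Agent.H6 Cfsg.Agent.H9.S11
open Cfsg.Agent.H6.S5 (θ θ_mk θ_eq card_sub Sm mu mu_apply det_mu K1 mem_K1 TT exists_nmem finrank_pair)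

section
variable {F V : Type*} [Field F] [Fintype F] [AddCommGroup V] [Module F V] [FiniteDimensional F V]

local notation "q" => Fintype.card F

theorem card_fix (hV : finrank F V = 11) {g : V ≃ₗ[F] V} (h : θ g ≠ 1) :
    Nat.card {ω // θ g ω = ω} * (q - 1) ≤ q ^ 10 + q ^ 6 := by
  classical
  have : Finite V := Module.finite_of_finite F
  have := Fintype.ofFinite V
  let W := fun c : F => LinearMap.ker ((g : End F V) - c • 1)
  have mW : ∀ c v, v ∈ W c ↔ g v = c • v := fun c v => by simp [W, sub_eq_zero]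
  have a : Nat.card {ω // θ g ω = ω} * (q - 1) ≤ (univ.biUnion fun c => univ.filter (· ∈ W c)).card := by
    rw [← Fintype.card_units, ← Nat.card_eq_fintype_card, ← Nat.card_prod, ← Nat.card_eq_finsetCard]
    refine Nat.card_le_card_of_injective (fun x => ⟨x.2 • x.1.1.rep, ?_⟩) fun x y e => ?_
    · obtain ⟨c, hc⟩ := (θ_mk (F := F) (g := g) x.1.1.rep_nonzero x.1.1.rep_nonzero).1
        (by rw [Projectivization.mk_rep]; exact x.1.2)
      simp only [mem_biUnion, mem_univ, mem_filter, true_and]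
      exact ⟨c, (W c).smul_mem _ ((mW _ _).2 hc)⟩
    · replace e : x.2 • x.1.1.rep = y.2 • y.1.1.rep := congrArg Subtype.val e
      have e1 : x.1 = y.1 := Subtype.ext (by
        rw [← x.1.1.mk_rep, ← y.1.1.mk_rep, Projectivization.mk_eq_mk_iff]
        exact ⟨x.2⁻¹ * y.2, by rw [mul_smul, ← e, inv_smul_smul]⟩)
      rw [e1] at e
      exact Prod.ext e1 (Units.ext (smul_left_injective F y.1.1.rep_nonzero e))
  obtain ⟨c0, hc⟩ : ∃ c0, ∀ c, c ≠ c0 → finrank F (W c) ≤ 5 := by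
    by_contra! hh
    obtain ⟨c, -, h1⟩ := hh 0
    obtain ⟨d, ne, h2⟩ := hh c
    have e := Submodule.finrank_sup_add_finrank_inf_eq (W c) (W d)
    have := (W c ⊔ W d).finrank_le
    rw [(Submodule.eq_bot_iff (W c ⊓ W d)).2 fun v hv => by_contra fun v0 => ne
      (smul_left_injective F v0 (((mW _ _).1 hv.2).symm.trans ((mW _ _).1 hv.1))), finrank_bot] at e
    omega
  refine a.trans (card_biUnion_le.trans ((sum_le_sum (g := fun c => (if c = c0 then q ^ 10 else 0) + q ^ 5)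
    fun c _ => ?_).trans (by simp [sum_add_distrib, pow_succ']))) 
  rw [← Fintype.card_subtype, ← Nat.card_eq_fintype_card, card_sub]
  split_ifs with e
  · have := Submodule.finrank_lt (s := W c) fun e => h (θ_eq.2 ⟨c, fun v => (mW c v).1 (e.ge trivial)⟩ |>.trans
      (map_one _))
    exact (Nat.pow_le_pow_right Fintype.card_pos (by omega)).trans (Nat.le_add_right _ _)
  · simpa using Nat.pow_le_pow_right Fintype.card_pos (hc c e)

theorem card_SLV (hV : finrank F V = 11) : (Nat.card (SLV F V) : ℤ) = ord11 q := by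
  let e : (Fin 11 → F) ≃ₗ[F] V := LinearEquiv.ofFinrankEq _ _ (by simp [hV])
  rw [← Nat.card_congr ((glEquiv e).toEquiv.subtypeEquiv fun g => (glEquiv_mem_SLV e g).symm),
    El.card_SL 10]
  simp [ord11, prod_range_succ, sum_range_succ, Nat.one_le_pow _ _ (Fintype.card_pos (α := F)), mul_assoc]

end

universe v w

variable {F : Type v} {K : Type w} [Field F] [Fintype F] [Field K] [Algebra F K] [Finite K]
  {g g' : K ≃ₗ[F] K} {σ σ' : K →ₐ[F] K} {c : K}

local notation "q" => Fintype.card F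

theorem ar {n d t : ℕ} (n1 : 1 < n)
    (c1 : d * t = n ^ 10 + n ^ 9 + n ^ 8 + n ^ 7 + n ^ 6 + n ^ 5 + n ^ 4 + n ^ 3 + n ^ 2 + n + 1)
    (hd : d = 1 ∨ d = 11 ∧ n % 11 = 1) : 2047 ≤ t ∧ ∀ f, f * (n - 1) ≤ n ^ 10 + n ^ 6 → f + 12 ≤ t := by
  rcases hd with rfl | ⟨rfl, e⟩
  · have := Nat.pow_le_pow_left (show 2 ≤ n from n1) 2
    have := Nat.pow_le_pow_left (show 2 ≤ n from n1) 3
    have := Nat.pow_le_pow_left (show 2 ≤ n from n1) 4
    have := Nat.pow_le_pow_left (show 2 ≤ n from n1) 5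
    have := Nat.pow_le_pow_left (show 2 ≤ n from n1) 6
    have := Nat.pow_le_pow_left (show 2 ≤ n from n1) 7
    have := Nat.pow_le_pow_left (show 2 ≤ n from n1) 8
    have := Nat.pow_le_pow_left (show 2 ≤ n from n1) 9
    have := Nat.pow_le_pow_left (show 2 ≤ n from n1) 10
    refine ⟨by omega, fun f hf => ?_⟩
    have := (Nat.le_mul_of_pos_right f (Nat.sub_pos_of_lt n1)).trans hf
    omega
  · have n12 : 12 ≤ n := by omega
    have := Nat.pow_le_pow_left n12 10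
    have := Nat.pow_le_pow_left n12 9
    have := Nat.pow_le_pow_right (show 0 < n by omega) (show 6 ≤ 8 by omega)
    refine ⟨by omega, fun f hf => ?_⟩
    have := (Nat.mul_le_mul_left f (show 11 ≤ n - 1 by omega)).trans hf
    omega

variable (hK : finrank F K = 11)
include hK

theorem top_of {S : Subalgebra F K} (hc : c ∉ (⊥ : Subalgebra F K)) (h : c ∈ S) (a : K) : a ∈ S :=
  (((Subalgebra.isSimpleOrder_of_finrank_prime F K (hK ▸ Nat.prime_eleven)).eq_bot_or_eq_top S).resolve_left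
    fun e => hc (e ▸ h)).ge trivial

theorem exists_sm (hc : c ∉ (⊥ : Subalgebra F K)) {c' : K} (h : ∀ v, g (c * v) = c' * g v) :
    ∃ σ, Sm g σ ∧ σ c = c' := by
  have k : ∀ a v, g (a * v) = g (a * g⁻¹ 1) * g v := fun a => top_of hK (S :=
    { carrier := {a | ∀ v, g (a * v) = g (a * g⁻¹ 1) * g v}
      mul_mem' := fun {x y} hx hy v => by rw [mul_assoc, hx, hy, mul_assoc, hx (y * _), mul_assoc]
      add_mem' := fun {x y} hx hy v => by simp only [add_mul, map_add, hx v, hy v]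
      algebraMap_mem' := fun μ v => by simp [← Algebra.smul_def] }) hc (fun v => by simp [h]) a
  exact ⟨AlgHom.ofLinearMap ((g : End F K) ∘ₗ LinearMap.mulRight F (g⁻¹ 1)) (by simp) fun a b => by
    simpa [mul_assoc] using k a (b * g⁻¹ 1), k, by simp [h]⟩

theorem card_K1 : Nat.card (K1 F K) = q ^ 10 + q ^ 9 + q ^ 8 + q ^ 7 + q ^ 6 + q ^ 5 + q ^ 4 + q ^ 3 + q ^ 2 + q + 1 := by
  have := (K1 F K).card_mul_index
  have q1 := Fintype.one_lt_card (α := F)
  rw [index_ker, MonoidHom.range_eq_top.2 (FiniteField.unitsMap_norm_surjective F K), card_top,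
    Nat.card_units, Nat.card_units, Module.natCard_eq_pow_finrank (K := F) (V := K), hK,
    Nat.card_eq_fintype_card (α := F)] at this
  refine Nat.eq_of_mul_eq_mul_right (Nat.sub_pos_of_lt q1) (this.trans ?_)
  zify [q1.le, Nat.one_le_pow 11 q (by omega)]; ring

theorem sm_cent (h : Sm g σ) {c : Kˣ} (c1 : c ∈ K1 F K) (hc : (c : K) ∉ (⊥ : Subalgebra F K)) {l : F}
    (e : σ c = l • (c : K)) : σ = 1 := by
  have k : ∀ a, a ∉ (⊥ : Subalgebra F K) → σ a = a → σ = 1 := fun a ha e =>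
    AlgHom.ext (top_of hK (S := σ.equalizer 1) ha e)
  have n1 : ∀ l : F, Algebra.norm F (algebraMap F K l) = l ^ 11 := fun l => hK ▸ Algebra.norm_algebraMap l
  have l5 : l ^ 11 = 1 := by
    have := h.norm c
    rwa [e, Algebra.smul_def, map_mul, mem_K1.1 c1, mul_one, n1] at this
  by_cases l1 : l = 1
  · exact k c hc (by simp [e, l1])
  have := Fact.mk Nat.prime_eleven
  have pr : IsPrimitiveRoot l 11 := orderOf_eq_prime l5 l1 ▸ IsPrimitiveRoot.orderOf l
  refine k (c ^ 11) (fun h5 => hc ?_) (by rw [map_pow, e, smul_pow, l5, one_smul])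
  obtain ⟨μ, hμ⟩ := Algebra.mem_bot.1 h5
  obtain ⟨m, hm⟩ := pr.dvd_of_pow_eq_one _ (FiniteField.pow_card_sub_one_eq_one l (by
    rintro rfl; simp at l5))
  have c2 : (c : K) ^ 121 = 1 := by
    rw [pow_mul _ 11 11, ← hμ, ← map_pow, ← n1, hμ, map_pow, mem_K1.1 c1]; simp
  have c3 : (c : K) ^ Nat.card (K1 F K) = 1 :=
    congrArg (fun x : K1 F K => (x.1 : K)) (pow_card_eq_one' (x := (⟨c, c1⟩ : K1 F K)))
  have q1 := Fintype.one_lt_card (α := F)
  rw [card_K1 hK, show q = 11 * m + 1 by omega, show (11 * m + 1) ^ 10 +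
    (11 * m + 1) ^ 9 +
    (11 * m + 1) ^ 8 +
    (11 * m + 1) ^ 7 +
    (11 * m + 1) ^ 6 +
    (11 * m + 1) ^ 5 +
    (11 * m + 1) ^ 4 +
    (11 * m + 1) ^ 3 +
    (11 * m + 1) ^ 2 + (11 * m + 1) + 1 =
    121 * (5 * m ^ 1 +
    165 * m ^ 2 +
    3630 * m ^ 3 +
    55902 * m ^ 4 +
    614922 * m ^ 5 +
    4831530 * m ^ 6 +
    26573415 * m ^ 7 +
    97435855 * m ^ 8 +
    214358881 * m ^ 9 +
    214358881 * m ^ 10) + 11 by ring, pow_add, pow_mul, c2, one_pow, one_mul] at c3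
  obtain ⟨i, -, hi⟩ := (pr.map_of_injective (algebraMap F K).injective).eq_pow_of_pow_eq_one c3
  exact hi ▸ pow_mem (Subalgebra.algebraMap_mem _ l) i

set_option maxHeartbeats 1000000 in
theorem singer_core (cA : CA.{w, w}) (ck : ∀ M : Subgroup (K ≃ₗ[F] K), TT M → M ≤ SLV F K → SLV F K ≤ M)
    {M : Subgroup (K ≃ₗ[F] K)} (hM : M ≤ SLV F K) (hH : ∀ g ∈ SLV F K, GamL K g → g ∈ M)
    (ne : ∃ g ∈ M, ¬ GamL K g) : SLV F K ≤ M := by
  classical
  have := Fintype.ofFinite (ℙ F K)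
  have : Finite (K ≃ₗ[F] K) := Finite.of_injective _ DFunLike.coe_injective
  have : Nonempty (ℙ F K) := ⟨.mk F 1 one_ne_zero⟩
  have q1 := Fintype.one_lt_card (α := F)
  have sm : ∀ c : Kˣ, Sm (mu F c) 1 := fun c a v => mul_left_comm _ _ _
  let τ : K1 F K →* M.map θ := ((θ.comp (mu F)).comp (K1 F K).subtype).codRestrict _ fun c =>
    ⟨_, hH _ (mem_SLV'.2 ((det_mu _).trans (mem_K1.1 c.2))) (sm c).gamL, rfl⟩
  have lin : ∀ {g} (hg : g ∈ M), Sm g 1 → (⟨θ g, g, hg, rfl⟩ : M.map θ) ∈ τ.range := fun hg h => by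
    obtain ⟨c, c1, rfl⟩ := h.lin (hM hg); exact ⟨⟨c, c1⟩, rfl⟩
  have one : ∀ c : K1 F K, τ c = 1 ↔ (c.1 : K) ∈ (⊥ : Subalgebra F K) := fun c => by
    rw [Subtype.ext_iff, Algebra.mem_bot]
    exact (θ_eq (g := mu F c) (g' := 1) |>.symm.trans (by rw [map_one]; rfl)).symm.trans (exists_congr fun l => ⟨fun e => by
      simpa [Algebra.smul_def, mu_apply, eq_comm] using e 1, fun e v => by
      simp [mu_apply, ← e, Algebra.smul_def]⟩)
  have ex : ∀ {g} (hg : g ∈ M) (c c' : K1 F K), τ c ≠ 1 →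
      (⟨θ g, g, hg, rfl⟩ : M.map θ) * τ c = τ c' * ⟨θ g, g, hg, rfl⟩ →
      ∃ (σ : K →ₐ[F] K) (l : F), Sm g σ ∧ σ c.1 = l • (c'.1 : K) := fun {g} hg c c' c1 e => by
    obtain ⟨l, hl⟩ := (θ_eq (g := g * mu F c) (g' := mu F c' * g)).1
      (by rw [map_mul, map_mul]; exact congrArg Subtype.val e)
    obtain ⟨σ, h1, h2⟩ := exists_sm hK (g := g) (mt (one c).2 c1) (c' := l • (c'.1 : K)) fun v => by
      simpa [mu_apply] using hl v
    exact ⟨σ, l, h1, h2⟩
  have nm : ∀ {g σ} (hg : g ∈ M), Sm g σ →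
      (⟨θ g, g, hg, rfl⟩ : M.map θ) ∈ normalizer (τ.range : Set (M.map θ)) := fun {g σ} hg h => by
    refine mem_normalizer_fintype ?_
    rintro _ ⟨c, rfl⟩
    refine ⟨⟨Units.map (σ : K →* K) c.1, mem_K1.2 ((h.norm _).trans (mem_K1.1 c.2))⟩, eq_mul_inv_of_mul_eq
      (Subtype.ext ((map_mul θ _ g).symm.trans ((congrArg θ ?_).trans (map_mul θ g _))))⟩
    ext v; exact (h _ v).symm
  obtain ⟨ν, ν1, ν2⟩ := exists_norm_one (F := F) (K := K) (by omega)
  let c0 : K1 F K := ⟨.mk0 ν (by rintro rfl; exact ν2 (zero_mem _)), mem_K1.2 ν1⟩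
  have nm' : ∀ {g} (hg : g ∈ M), (⟨θ g, g, hg, rfl⟩ : M.map θ) ∈ normalizer (τ.range : Set (M.map θ)) →
      ∃ σ, Sm g σ := fun hg h => by
    obtain ⟨c, hc⟩ := (mem_normalizer_iff.1 h _).1 ⟨c0, rfl⟩
    obtain ⟨σ, -, h, -⟩ := ex hg c0 c (mt (one c0).1 ν2) (mul_inv_eq_iff_eq_mul.1 hc.symm)
    exact ⟨σ, h⟩
  let φ := FiniteField.frobeniusAlgEquivOfAlgebraic F K
  obtain ⟨a, ha⟩ := FiniteField.unitsMap_norm_surjective F K (LinearEquiv.det φ.toLinearEquiv)⁻¹
  have s0 : Sm (mu F a * φ.toLinearEquiv) (FiniteField.frobeniusAlgHom F K) := fun b v => by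
    simp [mu_apply, φ, mul_pow, mul_left_comm]
  have m0 : mu F a * φ.toLinearEquiv ∈ M := hH _ (by
    rw [mem_SLV, map_mul, mul_eq_one_iff_eq_inv, ← ha]; exact Units.ext ((LinearEquiv.coe_det _).trans (det_mu a))) s0.gamL
  generalize mu F a * φ.toLinearEquiv = ψ at s0 m0
  have o := (FiniteField.orderOf_frobeniusAlgHom F K).trans hK
  have pw : ∀ i, (⟨θ ψ, ψ, m0, rfl⟩ : M.map θ) ^ i = ⟨θ (ψ ^ i), _, pow_mem m0 i, rfl⟩ := fun i =>
    Subtype.ext (map_pow θ ψ i).symm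
  have hN := card_norm (nm m0 s0) (fun ⟨c, e⟩ => by
      obtain ⟨l, hl⟩ := (θ_eq (g := ψ) (g' := mu F c)).1 (congrArg Subtype.val e).symm
      rw [show FiniteField.frobeniusAlgHom F K = 1 from AlgHom.ext fun b => mul_right_cancel₀
        (show ψ 1 ≠ 0 by simp) (by rw [← s0, hl, hl]; simp [mu_apply, mul_comm]), orderOf_one] at o
      omega)
    (pw 11 ▸ lin (pow_mem m0 11) (by simpa [← o] using s0.pow 11)) (by
      rintro ⟨_, g, hg, rfl⟩ h
      obtain ⟨σ, hσ⟩ := nm' hg h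
      obtain ⟨i, rfl⟩ := (FiniteField.bijective_frobeniusAlgHom_pow F K).2 σ
      refine ⟨i, ?_⟩
      convert lin (mul_mem (inv_mem (pow_mem m0 i)) hg) fun b v => (ψ ^ i.1).injective (by
        simp [hσ b, s0.pow i b]) using 1
      exact Subtype.ext (show (θ ψ ^ i.1)⁻¹ * θ g = θ _ by rw [map_mul, map_inv, map_pow]))
  have c1 := τ.ker.card_mul_index
  rw [index_ker, card_K1 hK] at c1
  have cyc := (IsCyclic.exponent_eq_card (α := τ.ker)).symm
  have hd : Nat.card τ.ker = 1 ∨ Nat.card τ.ker = 11 ∧ q % 11 = 1 := by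
    have k : ∀ n, (∀ l : F, l ≠ 0 → l ^ 11 = 1 → l ^ n = 1) → Nat.card τ.ker ∣ n := fun n h =>
      cyc ▸ Monoid.exponent_dvd_of_forall_pow_eq_one fun c => Subtype.ext (Subtype.ext (Units.ext (by
        obtain ⟨l, hl⟩ := Algebra.mem_bot.1 ((one c.1).1 c.2)
        have := mem_K1.1 c.1.2
        rw [← hl, Algebra.norm_algebraMap, hK] at this
        simp [← hl, ← map_pow, h l (by rintro rfl; simp at this) this])))
    refine ((Nat.dvd_prime Nat.prime_eleven).1 (k 11 fun _ _ => id)).imp_right fun e => ⟨e, ?_⟩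
    have := e ▸ k _ fun l l0 _ => FiniteField.pow_card_sub_one_eq_one l l0
    omega
  refine ck M (fun x y x' y' x0 h1 x1 h2 => ?_) hM
  have y0 : y ≠ 0 := by simpa using h1 0
  have y1 : y' ≠ 0 := by simpa using h2 0
  obtain ⟨t1, fx⟩ := ar q1 c1 hd
  obtain ⟨⟨_, g, hg, rfl⟩, e1, e2⟩ := charD cA (Ω := ℙ F K) (n := Nat.card τ.ker) ⟨by
      rintro _ ⟨a, rfl⟩ _ ⟨b, rfl⟩; rw [← map_mul, mul_comm, map_mul], by
      rintro _ ⟨c, rfl⟩ c1 ⟨_, g, hg, rfl⟩ e
      obtain ⟨σ, l, h1, h2⟩ := ex hg c c c1 e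
      exact lin hg (sm_cent hK h1 c.2 (mt (one c).2 c1) h2 ▸ h1)⟩ hN
    t1 (fun e => ne.elim fun g ⟨hg, h⟩ => (nm' hg (e.ge trivial)).elim fun σ s => h s.gamL)
    (by
      rintro _ ⟨c, rfl⟩ c1 ω e
      induction ω with | h v v0 =>
      obtain ⟨l, hl⟩ := (θ_mk (g := mu F c) v0 v0).1 e
      exact c1 ((one c).2 (Algebra.mem_bot.2 ⟨l, mul_right_cancel₀ v0 (by
        rw [← mu_apply (F := F), hl, Units.smul_def, Algebra.smul_def])⟩)))
    (by omega) (by
      rw [c1, ← Nat.card_eq_fintype_card, Projectivization.card_of_finrank F K hK]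
      simp [sum_range_succ]; ring)
    (by rintro ⟨_, g, hg, rfl⟩ g1; exact fx _ (card_fix hK fun e => g1 (Subtype.ext e)))
    (fun g x g1 g2 x1 x3 xg hn e => by
      rcases hd with d1 | ⟨d1, d2⟩
      · rw [d1] at g2 hn; exact hn ⟨by omega, by omega⟩
      · rw [d1] at g2 hn c1
        exact num (FiniteField.isPrimePow_card F) c1 d2 (by exact_mod_cast g2) x1 x3 xg (by exact_mod_cast hn)
          (e.trans (by rw [← card_SLV hK]; exact_mod_cast (card_map_dvd M θ).trans (card_dvd_of_le hM))))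
    (a := .mk F x x0) (b := .mk F y y0) (a' := .mk F x' x1) (b' := .mk F y' y1)
    (fun e => ((Projectivization.mk_eq_mk_iff F _ _ _ _).1 e.symm).elim fun c e => h1 c e.symm)
    (fun e => ((Projectivization.mk_eq_mk_iff F _ _ _ _).1 e.symm).elim fun c e => h2 c e.symm)
  obtain ⟨c, e1⟩ := (θ_mk x0 x1).1 e1
  obtain ⟨d, e2⟩ := (θ_mk y0 y1).1 e2
  exact ⟨g, hg, c, d, e1, e2⟩

omit hK in
open Matrix in
theorem singer11_of (cA : CA.{v, v}) (K : Subalgebra F (Matrix (Fin 11) (Fin 11) F)) (hK : Geo.IsFieldSubalgebra 11 K)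
    (ck : ∀ M : Subgroup (K ≃ₗ[F] K), TT M → finrank F K = 11 → M ≤ SLV F K → SLV F K ≤ M) :
    Geo.IsMaximalIn (Geo.specialLinear (Fin 11) F)
      (Geo.subalgebraNormalizer K ⊓ Geo.specialLinear (Fin 11) F) := by
  have hnt : Nontrivial K := Module.nontrivial_of_finrank_pos (R := F) (by rw [hK.finrank_eq]; omega)
  have hf : IsField K :=
    { exists_pair_ne := exists_pair_ne K
      mul_comm := fun x y => Subtype.ext (hK.comm _ x.2 _ y.2)
      mul_inv_cancel := fun {x} hx => by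
        obtain ⟨y, hy, hxy⟩ := hK.inv _ x.2 fun h => hx (Subtype.ext h)
        exact ⟨⟨y, hy⟩, Subtype.ext hxy⟩ }
  let _ : Field K := hf.toField
  have hr : finrank F K = 11 := hK.finrank_eq
  let f : K →ₗ[F] (Fin 11 → F) := (Matrix.mulVecBilin F F).flip (Pi.single 0 1) ∘ₗ K.val.toLinearMap
  have inj : Function.Injective f := (injective_iff_map_eq_zero f).2 fun c hc => by_contra fun c0 => by
    obtain ⟨y, -, hy⟩ := hK.inv _ c.2 fun h => c0 (Subtype.ext h)
    have := congrArg (y *ᵥ ·) (show c.1 *ᵥ Pi.single 0 1 = 0 from hc)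
    simp only [mulVec_mulVec, mul_eq_one_comm.1 hy, one_mulVec, mulVec_zero] at this
    simpa using congrFun this 0
  let e := (f.linearEquivOfInjective inj (by simp [hr])).symm
  have he : ∀ c v : K, e.symm (c * v) = c.1 *ᵥ e.symm v := fun c v => (mulVec_mulVec _ c.1 v.1).symm
  have hsemi : ∀ g : GL (Fin 11) F, Semi K (glEquiv e g) ↔ ∀ k ∈ K,
      (g : Matrix _ _ F) * k * ((g⁻¹ : GL _ F) : Matrix _ _ F) ∈ K := fun g => by
    refine ⟨fun h k hk => ?_, fun h c => ⟨⟨_, h c c.2⟩, fun v => e.symm.injective ?_⟩⟩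
    · obtain ⟨c', hc'⟩ := h ⟨k, hk⟩
      have : (g : Matrix _ _ F) * k = c'.1 * g.1 := Matrix.toLin'.injective (LinearMap.ext fun v => by
        simpa [glEquiv_apply, he] using congrArg e.symm (hc' (e v)))
      rw [this, mul_assoc, Units.mul_inv, mul_one]
      exact c'.2
    · simp [glEquiv_apply, he, mul_assoc]
  refine isMaximalIn_of_core e _ (GamL K) (fun g => ?_) ?_ fun M => singer_core hr cA fun M h => ck M h hr
  · rw [GamL, ← map_inv, hsemi, hsemi]
    refine ⟨fun h => ⟨fun k hk => (h k).1 hk, fun k hk => (inv_mem h k).1 hk⟩, fun ⟨h1, h2⟩ k =>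
      ⟨h1 k, fun hk => by simpa [mul_assoc] using h2 _ hk⟩⟩
  · obtain ⟨c, -, c2⟩ := exists_norm_one (F := F) (K := K) (by omega)
    obtain ⟨y, hy⟩ := exists_nmem (W := Submodule.span F {1, c})
      (by rw [finrank_pair (b := c) one_ne_zero fun l e => c2 (e ▸ Subalgebra.smul_mem _ (one_mem _) l), hr]; omega)
    obtain ⟨φ, h1, h2⟩ := exists_dual_one hy
    have h3 := h1 1 (Submodule.subset_span (by simp))
    have h4 := h1 c (Submodule.subset_span (by simp))
    refine ⟨tv 1 φ h3, tv_mem_SLV _ _ _, fun h => ?_⟩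
    obtain ⟨c', hc⟩ := h.1 c
    obtain ⟨σ, s1, s2⟩ := exists_sm hr c2 hc
    have : σ y = y := top_of hr (S := σ.equalizer 1) c2 (s2.trans (by simpa [h3, h4] using (hc 1).symm)) y
    simpa [h2, h3, this] using s1 y 1

end Cfsg.Agent.H6.S11
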