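import Cfsg.Agent.H6.S11.D2
import Cfsg.Agent.H4.S11.A2
import Cfsg.Agent.H2.CK14

/-! The normaliser of a Singer cycle is maximal in `SL_11(q)`. -/

set_option autoImplicit false

namespace Cfsg.Agent.H6.S11

theorem ca : CA := fun _ _ _ _ h hN ht hK _ _ _ _ hf _ hn hD =>
  (H4.S11.charA h hN (by omega) hK hf hn hD).imp_right fun ⟨g, x, a, b, ⟨c, d, e⟩, f⟩ => ⟨g, x, a, b, c, d, e, f⟩

theorem singer11 {F : Type*} [Field F] [Fintype F] (K : Subalgebra F (Matrix (Fin 11) (Fin 11) F))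
    (hK : Geo.IsFieldSubalgebra 11 K) : Geo.IsMaximalIn (Geo.specialLinear (Fin 11) F)
      (Geo.subalgebraNormalizer K ⊓ Geo.specialLinear (Fin 11) F) :=
  singer11_of ca K hK fun _ h e _ => H2.CK.sl11 h e

end Cfsg.Agent.H6.S11
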